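import Cfsg.Agent.H959.JordanEx
import Cfsg.Agent.LieClassical.QuadForms

/-!
# Partitions and fixed nondegenerate subspaces
-/

set_option autoImplicit false

namespace Cfsg.Agent.H959

open Module QuadraticMap

universe u

section Comb

theorem sum_mod_two_odd (O : Multiset ℕ) (h : ∀ e ∈ O, Odd e) : O.sum % 2 = O.card % 2 := by
  induction O using Multiset.induction_on with
  | empty => simp
  | cons a O ih =>
    have h1 := h a (Multiset.mem_cons_self a O)
    have h2 := ih fun e he => h e (Multiset.mem_cons_of_mem he)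
    rw [Multiset.sum_cons, Multiset.card_cons]
    rw [Nat.odd_iff] at h1
    omega

theorem sum_mod_two_even (E : Multiset ℕ) (h : ∀ e ∈ E, Even e) : E.sum % 2 = 0 := by
  induction E using Multiset.induction_on with
  | empty => simp
  | cons a E ih =>
    have h1 := h a (Multiset.mem_cons_self a E)
    have h2 := ih fun e he => h e (Multiset.mem_cons_of_mem he)
    rw [Multiset.sum_cons]
    rw [Nat.even_iff] at h1
    omega

/-- Splitting a sub-multiset of `E₀ + O₀` (even and odd elements) of even sum. -/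
theorem split_sub {E₀ O₀ ν : Multiset ℕ} (hE₀ : ∀ e ∈ E₀, Even e) (hO₀ : ∀ e ∈ O₀, Odd e) (hν : ν ≤ E₀ + O₀)
    (hev : ν.sum % 2 = 0) :
    ∃ E O : Multiset ℕ, ν = E + O ∧ E ≤ E₀ ∧ O ≤ O₀ ∧ O.card % 2 = 0 ∧ ∀ e : ℕ, Even e → ν.count e = E.count e := by
  refine ⟨ν.filter Even, ν.filter (fun e => ¬ Even e), (Multiset.filter_add_not _ _).symm, ?_, ?_, ?_, ?_⟩
  · calc ν.filter Even ≤ (E₀ + O₀).filter Even := Multiset.filter_le_filter _ hν
      _ = E₀ := by
        rw [Multiset.filter_add, Multiset.filter_eq_self.mpr hE₀,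
          Multiset.filter_eq_nil.mpr (fun e he => Nat.not_even_iff_odd.mpr (hO₀ e he)), add_zero]
  · calc ν.filter (fun e => ¬ Even e) ≤ (E₀ + O₀).filter (fun e => ¬ Even e) := Multiset.filter_le_filter _ hν
      _ = O₀ := by
        rw [Multiset.filter_add, Multiset.filter_eq_nil.mpr (fun e he => not_not.mpr (hE₀ e he)),
          Multiset.filter_eq_self.mpr (fun e he => Nat.not_even_iff_odd.mpr (hO₀ e he)), zero_add]
  · have h1 := congrArg Multiset.sum (Multiset.filter_add_not Even ν)
    rw [Multiset.sum_add] at h1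
    have h2 := sum_mod_two_even (ν.filter Even) (fun e he => (Multiset.mem_filter.mp he).2)
    have h3 := sum_mod_two_odd (ν.filter (fun e => ¬ Even e))
      (fun e he => Nat.not_even_iff_odd.mp (Multiset.mem_filter.mp he).2)
    omega
  · intro e he
    rw [Multiset.count_filter, if_pos he]

/-- A sub-multiset of `2^k + O₀`. -/
theorem split_two {k : ℕ} {O₀ ν : Multiset ℕ} (hO₀ : ∀ e ∈ O₀, Odd e) (hν : ν ≤ Multiset.replicate k 2 + O₀)
    (hev : ν.sum % 2 = 0) (hc : Even (ν.count 2)) :
    ∃ (j : ℕ) (O : Multiset ℕ), Even j ∧ ν = Multiset.replicate j 2 + O ∧ O ≤ O₀ ∧ O.card % 2 = 0 := by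
  obtain ⟨E, O, rfl, hE, hO, hcard, hcount⟩ := split_sub (E₀ := Multiset.replicate k 2) (O₀ := O₀)
    (fun e he => by rw [Multiset.eq_of_mem_replicate he]; exact even_two) hO₀ hν hev
  have hEr : E = Multiset.replicate E.card 2 := Multiset.eq_replicate_card.mpr
    fun e he => Multiset.eq_of_mem_replicate (Multiset.mem_of_le hE he)
  refine ⟨E.card, O, ?_, by rw [← hEr], hO, hcard⟩
  rw [hcount 2 even_two, hEr, Multiset.count_replicate_self] at hc
  exact hc

theorem even_count_two {k : ℕ} {O : Multiset ℕ} (hk : Even k) (hO : ∀ e ∈ O, Odd e) (e : ℕ) (he : Even e) :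
    Even ((Multiset.replicate k 2 + O).count e) := by
  have h1 : O.count e = 0 := Multiset.count_eq_zero_of_notMem fun h => by
    exact Nat.not_odd_iff_even.mpr he (hO e h)
  rw [Multiset.count_add, h1, add_zero, Multiset.count_replicate]
  split_ifs
  · exact hk
  · exact Even.zero

end Comb

section App

open scoped MatrixGroups

variable {ι : Type} [Fintype ι] [DecidableEq ι] {F : Type u} [Field F] [Finite F]

omit [Fintype ι] [DecidableEq ι] [Finite F] in
theorem nondeg_of_on {Q : QuadraticForm F (ι → F)} {W : Submodule F (ι → F)}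
    (h : Cfsg.Geo.IsNondegenerateOn (polar (⇑Q)) W) :
    ∀ w ∈ W, (∀ u ∈ W, polarBilin Q w u = 0) → w = 0 := by
  intro w hw hall
  by_contra h0
  obtain ⟨-, x, hx, hne⟩ := h w hw h0
  exact hne (hall x hx)

/-- The case of partitions with an odd part. -/
theorem partition_of_fixed (h2 : (2 : F) ≠ 0) (p : ℕ) [hp : Fact p.Prime] [CharP F p] (hodd : Odd p)
    (Q : QuadraticForm F (ι → F)) (hQ : (polarBilin Q).Nondegenerate) (m : ℕ) (hm : m ≤ Fintype.card ι)
    (H : ∀ x : GL ι F, x ∈ Cfsg.Geo.omegaGL (⇑Q) → x ^ p = 1 → x ≠ 1 →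
      ∃ W : Submodule F (ι → F), finrank F W = m ∧ Cfsg.Geo.IsNondegenerateOn (polar (⇑Q)) W ∧
        W.map (Matrix.toLin' (x : Matrix ι ι F)) ≤ W)
    (μ : Multiset ℕ) (hle : ∀ e ∈ μ, 0 < e ∧ e ≤ p) (heven : ∀ e : ℕ, Even e → Even (μ.count e))
    (hoddpart : ∃ e ∈ μ, Odd e) (hsum : μ.sum = Fintype.card ι) :
    ∃ ν : Multiset ℕ, ν ≤ μ ∧ ν.sum = m ∧ ∀ e : ℕ, Even e → Even (ν.count e) := by
  obtain ⟨x, N, hxO, hxp, hx1, hNt, hNs, hNW⟩ := exists_unipotent h2 p hodd Q hQ μ hle heven hoddpart hsum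
  by_cases h : x = 1
  · -- all parts are one
    have hN0 := hx1 h
    have h1 := hNt 1
    rw [hN0, pow_one, LinearMap.range_zero, finrank_bot] at h1
    have hall : ∀ e ∈ μ, e = 1 := by
      intro e he
      have h3 := (Multiset.sum_eq_zero_iff.mp h1.symm) _ (Multiset.mem_map_of_mem (fun e => e - 1) he)
      have := (hle e he).1
      omega
    have hrep : μ = Multiset.replicate μ.card 1 := Multiset.eq_replicate_card.mpr hall
    have hcard : μ.card = Fintype.card ι := by
      rw [← hsum]
      conv_rhs => rw [hrep]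
      simp
    refine ⟨Multiset.replicate m 1, ?_, by simp, ?_⟩
    · rw [hrep, Multiset.replicate_le_replicate, hcard]
      exact hm
    · intro e he
      rw [Multiset.count_replicate, if_neg]
      · exact Even.zero
      · rintro rfl
        exact absurd he (by decide)
  · obtain ⟨W, hWm, hWn, hWx⟩ := H x hxO hxp h
    obtain ⟨ν, h1, h3, h4, -⟩ := exists_sub h2 (polarBilin Q)
      (fun x y => by simp only [polarBilin_apply_apply]; exact polar_comm (⇑Q) x y) N hNs μ hNt W (hNW W hWx)
      (nondeg_of_on hWn)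
    exact ⟨ν, h1, by rw [h3, hWm], h4⟩

/-- Every partition, for `m` even. -/
theorem partition_of_fixed' (h2 : (2 : F) ≠ 0) (p : ℕ) [hp : Fact p.Prime] [CharP F p] (hodd : Odd p)
    (Q : QuadraticForm F (ι → F)) (hQ : (polarBilin Q).Nondegenerate) (m : ℕ) (hm : m ≤ Fintype.card ι)
    (hme : Even m) (hpos : 0 < Fintype.card ι)
    (H : ∀ x : GL ι F, x ∈ Cfsg.Geo.omegaGL (⇑Q) → x ^ p = 1 → x ≠ 1 →
      ∃ W : Submodule F (ι → F), finrank F W = m ∧ Cfsg.Geo.IsNondegenerateOn (polar (⇑Q)) W ∧
        W.map (Matrix.toLin' (x : Matrix ι ι F)) ≤ W)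
    (μ : Multiset ℕ) (hle : ∀ e ∈ μ, 0 < e ∧ e ≤ p) (heven : ∀ e : ℕ, Even e → Even (μ.count e))
    (hsum : μ.sum = Fintype.card ι) :
    ∃ ν : Multiset ℕ, ν ≤ μ ∧ ν.sum = m ∧ ∀ e : ℕ, Even e → Even (ν.count e) := by
  by_cases hoddpart : ∃ e ∈ μ, Odd e
  · exact partition_of_fixed h2 p hodd Q hQ m hm H μ hle heven hoddpart hsum
  push Not at hoddpart
  have hall : ∀ e ∈ μ, Even e := fun e he => Nat.not_odd_iff_even.mp (hoddpart e he)
  rcases Multiset.empty_or_exists_mem μ with rfl | ⟨e, he⟩
  · simp at hsum; omega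
  obtain ⟨a, ha⟩ := (hall e he)
  have hcount : 2 ≤ μ.count e := by
    have h1 := heven _ (hall e he)
    have h3 := Multiset.count_pos.mpr he
    rw [Nat.even_iff] at h1
    omega
  have hle2 : ({e} + {e} : Multiset ℕ) ≤ μ := by
    have : ({e} + {e} : Multiset ℕ) = Multiset.replicate 2 e := rfl
    rw [this, ← Multiset.le_count_iff_replicate_le]
    exact hcount
  obtain ⟨μ', rfl⟩ := Multiset.le_iff_exists_add.mp hle2
  have he0 := (hle e he).1
  have hep := (hle e he).2
  have hep' : e + 1 ≤ p := by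
    obtain ⟨k, hk⟩ := hodd
    omega
  have hμ'even : ∀ e ∈ μ', Even e := fun e he => hall e (Multiset.mem_add.mpr (Or.inr he))
  obtain ⟨ν₁, h1, h3, h4⟩ := partition_of_fixed h2 p hodd Q hQ m hm H (μ' + ({e + 1} + {e - 1}))
    (by
      intro f hf
      rw [Multiset.mem_add, Multiset.mem_add, Multiset.mem_singleton, Multiset.mem_singleton] at hf
      rcases hf with hf | rfl | rfl
      · exact hle f (Multiset.mem_add.mpr (Or.inr hf))
      · omega
      · omega)
    (by
      intro f hf
      have h5 := heven f hf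
      rw [Multiset.count_add, Multiset.count_add, Multiset.count_singleton, Nat.even_iff] at h5
      rw [Multiset.count_add, Multiset.count_add, Multiset.count_singleton, Multiset.count_singleton,
        if_neg (by rintro rfl; rw [Nat.even_iff] at hf; omega),
        if_neg (by rintro rfl; rw [Nat.even_iff] at hf; omega), Nat.even_iff]
      split_ifs at h5 <;> omega)
    ⟨e + 1, by simp, by rw [Nat.odd_iff]; omega⟩
    (by
      rw [Multiset.sum_add, Multiset.sum_add, Multiset.sum_singleton] at hsum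
      rw [Multiset.sum_add, Multiset.sum_add, Multiset.sum_singleton, Multiset.sum_singleton]
      omega)
  obtain ⟨E, O, rfl, hE, hO, hcard, hcnt⟩ := split_sub (E₀ := μ') (O₀ := {e + 1} + {e - 1}) hμ'even (by
    intro f hf
    rw [Multiset.mem_add, Multiset.mem_singleton, Multiset.mem_singleton] at hf
    rcases hf with rfl | rfl <;> rw [Nat.odd_iff] <;> omega) h1 (by rw [h3]; exact Nat.even_iff.mp hme)
  have hOc : O.card ≤ 2 := by
    have := Multiset.card_le_card hO
    simpa using this
  have hO' : O = 0 ∨ O = {e + 1} + {e - 1} := by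
    rcases (show O.card = 0 ∨ O.card = 2 by omega) with h | h
    · exact Or.inl (Multiset.card_eq_zero.mp h)
    · right
      apply Multiset.eq_of_le_of_card_le hO
      rw [h]; rfl
  rcases hO' with rfl | rfl
  · refine ⟨E, hE.trans (Multiset.le_add_left _ _), by simpa using h3, fun f hf => ?_⟩
    rw [← hcnt f hf]
    exact h4 f hf
  · refine ⟨({e} + {e}) + E, add_le_add_right hE _, ?_, ?_⟩
    · rw [Multiset.sum_add, Multiset.sum_add, Multiset.sum_singleton, Multiset.sum_singleton] at h3
      rw [Multiset.sum_add, Multiset.sum_add, Multiset.sum_singleton]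
      omega
    · intro f hf
      have h5 := h4 f hf
      rw [hcnt f hf] at h5
      rw [Multiset.count_add, Multiset.count_add, Multiset.count_singleton]
      rw [Nat.even_iff] at h5 ⊢
      split_ifs <;> omega

omit [Finite F] [Fintype ι] [DecidableEq ι] in
theorem nondeg_of_rad (h2 : (2 : F) ≠ 0) (Q : QuadraticForm F (ι → F))
    (h : ∀ u, Q u = 0 → (∀ v, polar (⇑Q) u v = 0) → u = 0) : (polarBilin Q).Nondegenerate := by
  have key : ∀ u, (∀ v, polar (⇑Q) u v = 0) → u = 0 := by
    intro u hu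
    refine h u ?_ hu
    have h1 := hu u
    rw [polar_self] at h1
    have h3 : (2 : F) * Q u = 0 := by simpa using h1
    exact (mul_eq_zero.mp h3).resolve_left h2
  refine ⟨fun u hu => key u fun v => hu v, fun u hu => key u fun v => ?_⟩
  rw [polar_comm]
  exact hu v

omit [Finite F] in
/-- A scalar matrix of order dividing `p` in characteristic `p` is the identity. -/
theorem eq_one_of_scalar [Nonempty ι] (p : ℕ) [hp : Fact p.Prime] [CharP F p] (x : GL ι F) (hxp : x ^ p = 1) (z : F)
    (hz : (x : Matrix ι ι F) = z • (1 : Matrix ι ι F)) : x = 1 := by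
  obtain ⟨i⟩ := (inferInstance : Nonempty ι)
  have h1 : ((x ^ p : GL ι F) : Matrix ι ι F) = 1 := by rw [hxp]; rfl
  rw [Units.val_pow_eq_pow_val, hz, smul_pow, one_pow] at h1
  have h3 := congrFun (congrFun h1 i) i
  simp only [Matrix.smul_apply, Matrix.one_apply_eq, smul_eq_mul, mul_one] at h3
  have h4 : (z - 1) ^ p = 0 := by rw [sub_pow_char, h3, one_pow, sub_self]
  have h5 : z = 1 := sub_eq_zero.mp (pow_eq_zero_iff hp.out.ne_zero |>.mp h4)
  apply Units.ext
  rw [hz, h5, one_smul]
  rfl

end App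

end Cfsg.Agent.H959
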