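import Cfsg.Agent.H959.JordanApp

/-!
# The full Jordan type of a nondegenerate invariant subspace; elements without elliptic fixed spaces
-/

set_option autoImplicit false

namespace Cfsg.Agent.H959

open Module QuadraticMap

universe u

section Comb

theorem map_sum_ofRanks_aux (a : ℕ → ℕ) (hc : ∀ j, 2 * a (j + 1) ≤ a j + a (j + 2)) (j K : ℕ) (hj : j ≤ K) :
    ((ofRanks a K).map (fun x => x - j)).sum + (K + 1 - j) * a K = a j + (K - j) * a (K + 1) := by
  induction K, hj using Nat.le_induction with
  | base =>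
    have h0 : ((ofRanks a j).map (fun x => x - j)).sum = 0 := by
      rw [Multiset.sum_eq_zero_iff]
      intro x hx
      obtain ⟨e, he, rfl⟩ := Multiset.mem_map.mp hx
      rw [ofRanks, Multiset.mem_sum] at he
      obtain ⟨i, hi, hie⟩ := he
      rw [Finset.mem_range] at hi
      rw [Multiset.eq_of_mem_replicate hie]
      omega
    rw [h0, Nat.sub_self, zero_mul, add_zero, zero_add, Nat.add_sub_cancel_left, one_mul]
  | succ K hK ih =>
    have h1 : ofRanks a (K + 1) = ofRanks a K + Multiset.replicate (a K + a (K + 2) - 2 * a (K + 1)) (K + 1) := by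
      rw [ofRanks, Finset.sum_range_succ, ← ofRanks]
    rw [h1, Multiset.map_add, Multiset.sum_add, Multiset.map_replicate, Multiset.sum_replicate, smul_eq_mul]
    generalize ((ofRanks a K).map (fun x => x - j)).sum = S at *
    obtain ⟨c, hc'⟩ := Nat.exists_eq_add_of_le (hc K)
    rw [hc', Nat.add_sub_cancel_left]
    have h1 : (K + 1 - j) * (a K + a (K + 2)) = (K + 1 - j) * (2 * a (K + 1) + c) := by rw [hc']
    zify [show j ≤ K + 1 by omega, hK, show j ≤ K + 1 + 1 by omega] at ih h1 ⊢
    rw [show K + 1 + 1 = K + 2 from rfl]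
    linear_combination ih - h1

theorem map_sum_ofRanks (a : ℕ → ℕ) (hc : ∀ j, 2 * a (j + 1) ≤ a j + a (j + 2)) (K : ℕ) (h0 : ∀ j, K ≤ j → a j = 0)
    (j : ℕ) : ((ofRanks a K).map (fun x => x - j)).sum = a j := by
  rcases le_total j K with hj | hj
  · have := map_sum_ofRanks_aux a hc j K hj
    rw [h0 K le_rfl, h0 (K + 1) (by omega)] at this
    simpa using this
  · rw [h0 j hj, Multiset.sum_eq_zero_iff]
    intro x hx
    obtain ⟨e, he, rfl⟩ := Multiset.mem_map.mp hx
    rw [ofRanks, Multiset.mem_sum] at he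
    obtain ⟨i, hi, hie⟩ := he
    rw [Finset.mem_range] at hi
    rw [Multiset.eq_of_mem_replicate hie]
    omega

/-- The Jordan type is determined by the ranks. -/
theorem eq_of_map_sum {μ ν : Multiset ℕ} (h0 : μ.count 0 = ν.count 0)
    (h : ∀ j, (μ.map (fun x => x - j)).sum = (ν.map (fun x => x - j)).sum) : μ = ν := by
  ext e
  rcases e with _ | e
  · exact h0
  · have h1 := count_eq μ e
    have h3 := count_eq ν e
    rw [h e, h (e + 1), h (e + 2)] at h1
    omega

end Comb

section Main

variable {F V : Type*} [Field F] [AddCommGroup V] [Module F V] [FiniteDimensional F V]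

/-- The Jordan type of a nondegenerate invariant subspace, with all ranks. -/
theorem exists_sub_full (h2 : (2 : F) ≠ 0) (B : LinearMap.BilinForm F V) (hs : ∀ x y, B x y = B y x)
    (N : Module.End F V) (hN : ∀ x y, B (N x) y = - B x (N y)) (μ : Multiset ℕ) (hμ : HasType N μ)
    (W : Submodule F V) (hW : W.map N ≤ W) (hnd : ∀ w ∈ W, (∀ u ∈ W, B w u = 0) → w = 0) :
    ∃ ν : Multiset ℕ, ν ≤ μ ∧ (∀ e : ℕ, Even e → Even (ν.count e)) ∧
      ∀ j, finrank F (W.map (N ^ j)) = (ν.map (fun e => e - j)).sum := by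
  classical
  have hrefl : LinearMap.BilinForm.IsRefl B := fun x y h => by rw [hs, h]
  have hcompl : IsCompl W (B.orthogonal W) := by
    refine LinearMap.BilinForm.isCompl_orthogonal_of_restrict_nondegenerate hrefl ?_
    refine ⟨fun x hx => Subtype.ext (hnd x x.2 fun u hu => hx ⟨u, hu⟩),
      fun x hx => Subtype.ext (hnd x x.2 fun u hu => ?_)⟩
    rw [hs]
    exact hx ⟨u, hu⟩
  have hW'inv : (B.orthogonal W).map N ≤ B.orthogonal W := by
    rintro _ ⟨x, hx, rfl⟩
    intro w hw
    have h1 : B (N w) x = 0 := hx _ (hW (Submodule.mem_map_of_mem hw))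
    have h3 : B w (N x) = - B (N w) x := by rw [hN, neg_neg]
    change B w (N x) = 0
    rw [h3, h1, neg_zero]
  set a : ℕ → ℕ := fun j => finrank F (W.map (N ^ j)) with ha
  set b : ℕ → ℕ := fun j => finrank F ((B.orthogonal W).map (N ^ j)) with hb
  have hab : ∀ j, a j + b j = (μ.map (fun e => e - j)).sum := fun j => by
    rw [← hμ j, finrank_range_eq_add N W (B.orthogonal W) hcompl hW hW'inv]
  have hca : ∀ j, 2 * a (j + 1) ≤ a j + a (j + 2) := convex N W hW
  have hcb : ∀ j, 2 * b (j + 1) ≤ b j + b (j + 2) := convex N (B.orthogonal W) hW'inv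
  obtain ⟨K, hK⟩ : ∃ K, ∀ j, K ≤ j → (μ.map (fun e => e - j)).sum = 0 := by
    refine ⟨μ.sum, fun j hj => ?_⟩
    rw [Multiset.sum_eq_zero_iff]
    intro x hx
    obtain ⟨e, he, rfl⟩ := Multiset.mem_map.mp hx
    have := Multiset.le_sum_of_mem he
    omega
  have haK : ∀ j, K ≤ j → a j = 0 := fun j hj => by have := hab j; rw [hK j hj] at this; omega
  have hcount : ∀ e, (ofRanks a K).count (e + 1) = a e + a (e + 2) - 2 * a (e + 1) := by
    intro e
    rw [count_ofRanks]
    split_ifs with h
    · rfl
    · rw [haK e (by omega), haK (e + 2) (by omega)]; simp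
  refine ⟨ofRanks a K, ?_, ?_, fun j => (map_sum_ofRanks a hca K haK j).symm⟩
  · rw [Multiset.le_iff_count]
    intro e
    rcases e with _ | e
    · rw [count_zero_ofRanks]; exact Nat.zero_le _
    · rw [hcount]
      have h1 := count_eq μ e
      rw [← hab, ← hab, ← hab] at h1
      have h3 := hca e
      have h4 := hcb e
      omega
  · intro e he
    rcases e with _ | e
    · rw [count_zero_ofRanks]; exact Even.zero
    · rw [hcount]
      have heo : Odd e := by
        rcases Nat.even_or_odd e with h | h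
        · exact absurd (h.add_one) (Nat.not_odd_iff_even.mpr he)
        · exact h
      have h1 : Even (a e) := even_rank B hs N hN h2 W hW hnd e heo
      have h3 : Even (a (e + 2)) := even_rank B hs N hN h2 W hW hnd (e + 2) (by
        rw [Nat.odd_add]; simpa using heo)
      have h4 := hca e
      rw [Nat.even_iff] at h1 h3 ⊢
      omega

end Main

section Ell

open scoped MatrixGroups

variable {ι : Type} [Fintype ι] [DecidableEq ι] {F : Type u} [Field F] [Finite F]

/-- In odd dimension there is an element of order `p` of `Ω(Q)` all of whose invariant nondegenerate subspaces of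
even dimension are of plus type. -/
theorem exists_no_elliptic (h2 : (2 : F) ≠ 0) (p : ℕ) [hp : Fact p.Prime] [CharP F p] (hodd : Odd p)
    (Q : QuadraticForm F (ι → F)) (hQ : (polarBilin Q).Nondegenerate) (d : ℕ) (hd : 2 ≤ d)
    (hcard : Fintype.card ι = 2 * d + 1) :
    ∃ x : GL ι F, x ∈ Cfsg.Geo.omegaGL (⇑Q) ∧ orderOf x = p ∧
      ∀ W : Submodule F (ι → F), W.map (Matrix.toLin' (x : Matrix ι ι F)) ≤ W → Even (finrank F W) →
        Cfsg.Geo.IsNondegenerateOn (polar (⇑Q)) W → Cfsg.Geo.IsPlusTypeOn (⇑Q) W := by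
  have hp3 : 3 ≤ p := by
    have h1 := hp.out.two_le
    rcases Nat.lt_or_ge 2 p with h | h
    · exact h
    · have : p = 2 := by omega
      rw [this] at hodd
      exact absurd hodd (by decide)
  obtain ⟨k, o, hk, ho, hsum, hk1, hop⟩ : ∃ k o : ℕ, Even k ∧ Odd o ∧ 2 * k + o = 2 * d + 1 ∧ 1 ≤ k ∧ o ≤ p := by
    rcases Nat.even_or_odd d with hd' | hd'
    · exact ⟨d, 1, hd', odd_one, rfl, by omega, by omega⟩
    · refine ⟨d - 1, 3, ?_, by decide, by omega, by omega, by omega⟩
      rw [Nat.odd_iff] at hd'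
      rw [Nat.even_iff]
      omega
  have hOodd : ∀ e ∈ ({o} : Multiset ℕ), Odd e := by
    intro e he
    rw [Multiset.mem_singleton.mp he]; exact ho
  have ho0 : 0 < o := ho.pos
  obtain ⟨x, N, hxO, hxp, hx1, hNt, hNs, hNW⟩ := exists_unipotent h2 p hodd Q hQ
    (Multiset.replicate k 2 + {o})
    (by
      intro e he
      rw [Multiset.mem_add, Multiset.mem_singleton] at he
      rcases he with he | rfl
      · rw [Multiset.eq_of_mem_replicate he]; omega
      · omega)
    (even_count_two hk hOodd)
    ⟨o, by simp, ho⟩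
    (by rw [Multiset.sum_add, Multiset.sum_replicate, Multiset.sum_singleton, smul_eq_mul, hcard]; omega)
  refine ⟨x, hxO, orderOf_eq_prime hxp ?_, ?_⟩
  · intro h
    have h1 := hNt 1
    rw [hx1 h, pow_one, LinearMap.range_zero, finrank_bot] at h1
    simp at h1
    omega
  · intro W hWx hWe hWn
    obtain ⟨ν, h1, h3, h4⟩ := exists_sub_full h2 (polarBilin Q)
      (fun x y => by simp only [polarBilin_apply_apply]; exact polar_comm (⇑Q) x y) N hNs _ hNt W (hNW W hWx)
      (nondeg_of_on hWn)
    have h5 := h4 0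
    rw [pow_zero, Module.End.one_eq_id, Submodule.map_id] at h5
    have h5' : finrank F W = ν.sum := by rw [h5]; simp
    obtain ⟨j, O, hj, rfl, hO, hOc⟩ := split_two (O₀ := {o}) hOodd h1 (by rw [← h5']; exact Nat.even_iff.mp hWe)
      (h3 2 even_two)
    have hc : O.card ≤ 1 := by simpa using Multiset.card_le_card hO
    have hO0 : O = 0 := Multiset.card_eq_zero.mp (by omega)
    have h6 := h4 1
    have h7 := h4 2
    rw [pow_one] at h6
    rw [hO0, add_zero] at h5' h6 h7
    simp at h5' h6 h7
    refine ⟨W.map N, hNW W hWx, ?_, by rw [h6, h5']; ring⟩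
    rintro _ ⟨w, hw, rfl⟩
    have h8 : (N ^ 2) w = 0 := by
      have : (N ^ 2) w ∈ W.map (N ^ 2) := Submodule.mem_map_of_mem hw
      rw [h7] at this
      exact (Submodule.mem_bot F).mp this
    have h9 := hNs w (N w)
    have h10 : N (N w) = 0 := by
      rw [pow_two] at h8
      exact h8
    rw [h10, map_zero, neg_zero, polarBilin_apply_apply, polar_self] at h9
    have h11 : (2 : F) * Q (N w) = 0 := by simpa using h9
    exact (mul_eq_zero.mp h11).resolve_left h2

end Ell

end Cfsg.Agent.H959
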