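import Mathlib
import Cfsg.Agent.H959.OddEll

/-!
# Involutions of odd-dimensional quadratic spaces fix nondegenerate subspaces of every even dimension and type
-/

set_option autoImplicit false

namespace Cfsg.Agent.H959

open Module QuadraticMap Cfsg.Agent.LieClassical.OrthCore Cfsg.Agent.LieClassical.OrthTrans
  Cfsg.Agent.H955 Cfsg.Agent.H958

universe u v
variable {F : Type u} [Field F] {V : Type v} [AddCommGroup V] [Module F V] [FiniteDimensional F V]
  {Q : QuadraticForm F V}

omit [FiniteDimensional F V] in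
/-- `T` is `-1` on the commutator space if `T² = 1`. -/
theorem neg_on_comS {T : V ≃ₗ[F] V} (hT : T ^ 2 = 1) {v : V} (hv : v ∈ comS T) : T v = - v := by
  obtain ⟨w, rfl⟩ := mem_comS.1 hv
  have h1 : T (T w) = w := by
    have h := congrArg (fun S : V ≃ₗ[F] V => S w) hT
    rw [pow_two] at h
    exact h
  rw [map_sub, h1, neg_sub]

/-- the determinant of an involution -/
theorem det_of_sq_eq_one (h2 : (2 : F) ≠ 0) {T : V ≃ₗ[F] V} (hT : T ^ 2 = 1) :
    LinearMap.det (T : V →ₗ[F] V) = (-1) ^ finrank F (comS T) := by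
  have hc : IsCompl (fixS T) (comS T) := isCompl_fixS_comS (r := 2) (by exact_mod_cast h2) hT
  let e := Submodule.prodEquivOfIsCompl _ _ hc
  have he : (T : V →ₗ[F] V) = (e : (fixS T × comS T) →ₗ[F] V) ∘ₗ
      ((LinearMap.id : fixS T →ₗ[F] fixS T).prodMap ((-1 : F) • (LinearMap.id : comS T →ₗ[F] comS T))) ∘ₗ
      (e.symm : V →ₗ[F] (fixS T × comS T)) := by
    ext v
    obtain ⟨p, rfl⟩ := e.surjective v
    have h1 : e p = (p.1 : V) + (p.2 : V) := rfl
    simp only [LinearMap.comp_apply, LinearEquiv.coe_coe, LinearEquiv.symm_apply_apply, LinearMap.prodMap_apply]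
    rw [h1, map_add, mem_fixS.1 p.1.2, neg_on_comS hT p.2.2]
    have h3 : ∀ x : fixS T × comS T, e x = (x.1 : V) + (x.2 : V) := fun _ => rfl
    rw [h3]
    simp
  rw [he, LinearMap.det_conj, LinearMap.det_prodMap, LinearMap.det_id, one_mul,
    LinearMap.det_smul, LinearMap.det_id, mul_one]

omit [FiniteDimensional F V] in
/-- the space spanned by an isometric copy of `M` with the two parts in given orthogonal subspaces -/
theorem exists_combined {M : Type*} [AddCommGroup M] [Module F M] [FiniteDimensional F M] {R : QuadraticForm F M}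
    (hR : Nondeg R) {A B : Submodule F V} (hAB : ∀ a ∈ A, ∀ b ∈ B, polar Q a b = 0) {N : Submodule F M}
    (hN : Nondeg (res R N)) (f : N →ₗ[F] V) (hf : ∀ x, Q (f x) = res R N x) (hfA : ∀ x, f x ∈ A)
    (g : perp R N →ₗ[F] V) (hg : ∀ x, Q (g x) = res R (perp R N) x) (hgB : ∀ x, g x ∈ B) :
    Nondeg (res Q (LinearMap.range f ⊔ LinearMap.range g)) ∧
      finrank F (LinearMap.range f ⊔ LinearMap.range g : Submodule F V) = finrank F M ∧
      (IsPlus (res Q (LinearMap.range f ⊔ LinearMap.range g)) ↔ IsPlus R) := by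
  let φ : M →ₗ[F] V := (LinearMap.coprod f g) ∘ₗ ((decomp hN).symm : M →ₗ[F] (N × perp R N))
  have hφ : ∀ p, φ (decomp hN p) = f p.1 + g p.2 := by
    intro p
    change LinearMap.coprod f g ((decomp hN).symm (decomp hN p)) = _
    rw [LinearEquiv.symm_apply_apply, LinearMap.coprod_apply]
  have hφQ : ∀ x, Q (φ x) = R x := by
    intro x
    obtain ⟨p, rfl⟩ := (decomp hN).surjective x
    rw [hφ, Q_decomp, Q_add, hAB _ (hfA _) _ (hgB _), add_zero, hf, hg]
    rfl
  have hφi : Function.Injective φ := by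
    rw [← LinearMap.ker_eq_bot, LinearMap.ker_eq_bot']
    intro x hx
    refine hR x fun y => ?_
    have h1 : polar Q (φ x) (φ y) = polar R x y := by
      simp only [polar, ← map_add, hφQ]
    rw [← h1, hx, polar_zero_left]
  have hr : LinearMap.range φ = LinearMap.range f ⊔ LinearMap.range g := by
    rw [LinearMap.range_comp_of_range_eq_top, LinearMap.range_coprod]
    exact LinearEquiv.range _
  have := range_props hR hφi hφQ
  rwa [hr] at this

/-- **Involutions fix subspaces of every even dimension and type.** -/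
theorem exists_inv_two [Finite F] (h2 : (2 : F) ≠ 0) (hQ : Nondeg Q) {m : ℕ} (hme : Even m) (hm : 0 < m)
    (hmn : m < finrank F V) {T : V ≃ₗ[F] V} (hT : T ∈ O Q) (hTT : T ^ 2 = 1) (hodd : Odd (finrank F (fixS T)))
    (δ : Prop) :
    ∃ W : Submodule F V, finrank F W = m ∧ Nondeg (res Q W) ∧ (IsPlus (res Q W) ↔ δ) ∧ ∀ w ∈ W, T w ∈ W := by
  have h2' : ((2 : ℕ) : F) ≠ 0 := by exact_mod_cast h2
  have hcn := H955.nondeg_comS hQ hT h2' hTT
  have hpc := H955.perp_comS hQ hT
  have hfn : Nondeg (res Q (fixS T)) := by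
    rw [← hpc]; exact nondeg_perp hQ hcn
  have hd := finrank_fixS_add_comS T
  obtain ⟨k, hk⟩ := id hme
  obtain ⟨M, _, _, _, R, hR, hRd, hRp⟩ := exists_model (F := F) k (by omega) δ
  have hne : m ≠ finrank F (fixS T) := by
    rintro rfl
    exact (Nat.not_even_iff_odd.2 hodd) hme
  rcases Nat.lt_or_gt_of_ne hne with hlt | hgt
  · obtain ⟨f, hf, hfQ⟩ := exists_embedding_odd h2 _ hR hRd hfn (by omega)
    obtain ⟨h1, h3, h4⟩ := range_props (Q := res Q (fixS T)) hR hf hfQ
    obtain ⟨e, he⟩ := exists_res_equiv (Q := Q) (fixS T) (LinearMap.range f)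
    refine ⟨(LinearMap.range f).map (fixS T).subtype, ?_, nondeg_of_equiv e he h1, ?_, ?_⟩
    · rw [← e.finrank_eq, h3, hRd]; omega
    · rw [← isPlus_iff_of_equiv e he, h4, hRp]
    · rintro _ ⟨w, hw, rfl⟩
      have h5 : T ((fixS T).subtype w) = (fixS T).subtype w := mem_fixS.1 w.2
      rw [h5]
      exact Submodule.mem_map_of_mem hw
  · -- embed the fixed space in `M`
    obtain ⟨f, hf, hfQ⟩ := exists_embedding_odd h2 _ hfn rfl hR (by omega)
    obtain ⟨h1, h3, -⟩ := range_props (Q := R) hfn hf hfQ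
    have hpn := nondeg_perp hR h1
    have hpd := finrank_add_perp hR (LinearMap.range f)
    obtain ⟨g, hg, hgQ⟩ := exists_embedding_odd h2 _ hpn rfl hcn (by omega)
    let e := LinearEquiv.ofInjective f hf
    have key := exists_combined (Q := Q) hR (A := fixS T) (B := comS T)
      (fun a ha b hb => by
        rw [← hpc] at ha
        rw [polar_comm]
        exact ha b hb)
      h1 ((fixS T).subtype ∘ₗ (e.symm : LinearMap.range f →ₗ[F] fixS T))
      (fun x => by
        obtain ⟨y, rfl⟩ := e.surjective x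
        rw [LinearMap.comp_apply, LinearEquiv.coe_coe, LinearEquiv.symm_apply_apply]
        exact (hfQ y).symm)
      (fun x => (e.symm x).2)
      ((comS T).subtype ∘ₗ g) (fun x => hgQ x) (fun x => (g x).2)
    refine ⟨_, key.2.1.trans (by rw [hRd]; omega), key.1, key.2.2.trans hRp, ?_⟩
    intro w hw
    obtain ⟨a, ha, b, hb, rfl⟩ := Submodule.mem_sup.1 hw
    have ha' : T a = a := by
      obtain ⟨x, rfl⟩ := ha
      exact mem_fixS.1 (e.symm x).2
    have hb' : T b = - b := by
      obtain ⟨x, rfl⟩ := hb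
      exact neg_on_comS hTT (g x).2
    rw [map_add, ha', hb']
    exact Submodule.add_mem _ (Submodule.mem_sup_left ha) (Submodule.neg_mem _ (Submodule.mem_sup_right hb))

end Cfsg.Agent.H959
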